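import Cfsg.Agent.H69.Base
import Cfsg.Agent.H69.SL2
import Cfsg.Prelude.Def_LocalEven

/-! Coordinates on a natural `SL₂(F)`-module adapted to a Sylow subgroup. -/

set_option autoImplicit false

namespace Cfsg.Agent.H69

open Subgroup Matrix

variable {G : Type*} [Group G] {F : Type*} [Field F]

/-- Coordinates on the natural module `V` of `L ≅ SL₂(F)` with `T` upper unitriangular. -/
structure NatN (F : Type*) [Field F] (V L T : Subgroup G) where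
  ρ : L →* SL2 F
  ψ : G → Fin 2 → F
  bij : Function.Bijective ρ
  mul : ∀ a ∈ V, ∀ b ∈ V, ψ (a * b) = ψ a + ψ b
  inj : ∀ a ∈ V, ∀ b ∈ V, ψ a = ψ b → a = b
  surj : ∀ x, ∃ v ∈ V, ψ v = x
  norm : L ≤ normalizer (V : Set G)
  equiv : ∀ (l : L), ∀ v ∈ V, ψ (l * v * (l : G)⁻¹) = (ρ l).1 *ᵥ ψ v
  TL : T ≤ L
  memT : ∀ l : L, (l : G) ∈ T ↔ ∃ c, ρ l = up c

/-- The upper unitriangular group. -/
def upSL (F : Type*) [Field F] : Multiplicative F →* SL2 F :=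
  MonoidHom.mk' (fun c => up c.toAdd) fun a b => by rw [toAdd_mul, up_add]

theorem exists_natN [Finite G] [Fintype F] {p n : ℕ} [hp : Fact p.Prime] (hF : Fintype.card F = p ^ n)
    {V L : Subgroup G} (hnat : IsNaturalSL2Module F V L) (hf : L ⊓ centralizer (V : Set G) = ⊥)
    (S : Sylow p L) : Nonempty (NatN F V L ((S : Subgroup L).map L.subtype)) := by
  classical
  obtain ⟨hN, ρ, ψ, hs, hk, he⟩ := hnat
  have hi : Function.Injective ρ := by
    rw [← MonoidHom.ker_eq_bot_iff, hk, eq_bot_iff]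
    intro x hx
    exact Subtype.ext (mem_bot.1 (hf ▸ ⟨x.2, hx⟩))
  have hc : Nat.card (upSL F).range = Fintype.card F := by
    rw [← Nat.card_congr (MonoidHom.ofInjective (f := upSL F)
      fun a b h => Multiplicative.toAdd.injective (up_injective h)).toEquiv]
    simp
  have hU : IsPGroup p (upSL F).range := IsPGroup.of_card (hc.trans hF)
  have hn : n ≠ 0 := by
    rintro rfl
    have := Fintype.one_lt_card (α := F)
    rw [hF] at this
    simp at this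
  have hix : ¬ p ∣ (upSL F).range.index := by
    intro hd
    have h1 := (upSL F).range.card_mul_index
    rw [hc, H9.card_sl_two] at h1
    rw [Nat.eq_of_mul_eq_mul_left Fintype.card_pos h1] at hd
    have h4 : p ∣ Fintype.card F ^ 2 := by
      rw [hF, ← pow_mul]; exact dvd_pow_self p (by omega)
    have h5 := Nat.dvd_sub h4 hd
    rw [Nat.sub_sub_self (Nat.one_le_pow _ _ Fintype.card_pos)] at h5
    exact hp.out.one_lt.ne' (Nat.dvd_one.1 h5)
  obtain ⟨y, hy⟩ := MulAction.exists_smul_eq (SL2 F) (S.mapSurjective hs) (hU.toSylow hix)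
  have hy' : cj y ((S : Subgroup L).map ρ) = (upSL F).range := congrArg Sylow.toSubgroup hy
  let Ψ : G → Fin 2 → F := fun g => if h : g ∈ V then y.1 *ᵥ ψ (Additive.ofMul ⟨g, h⟩) else 0
  have hΨ : ∀ g (h : g ∈ V), Ψ g = y.1 *ᵥ ψ (Additive.ofMul ⟨g, h⟩) := fun g h => dif_pos h
  have hc : ∀ x, (y⁻¹).1 *ᵥ (y.1 *ᵥ x) = x := fun x => by
    rw [sl2_mulVec_mul, inv_mul_cancel, sl2_one_mulVec]
  refine ⟨⟨(MulAut.conj y).toMonoidHom.comp ρ, Ψ, (MulAut.conj y).bijective.comp ⟨hi, hs⟩,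
    fun a ha b hb => ?_, fun a ha b hb h => ?_, fun x => ?_, hN, fun l v hv => ?_, map_subtype_le _,
    fun l => ?_⟩⟩
  · rw [hΨ _ (V.mul_mem ha hb), hΨ _ ha, hΨ _ hb, ← mulVec_add, ← map_add]; rfl
  · rw [hΨ _ ha, hΨ _ hb] at h
    have := congrArg ((y⁻¹).1 *ᵥ ·) h
    simp only [hc] at this
    exact congrArg Subtype.val (Additive.ofMul.injective (ψ.injective this))
  · obtain ⟨v, hv⟩ := ψ.surjective ((y⁻¹).1 *ᵥ x)
    refine ⟨(Additive.toMul v).1, (Additive.toMul v).2, ?_⟩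
    rw [hΨ _ (Additive.toMul v).2]
    change y.1 *ᵥ ψ v = x
    rw [hv, sl2_mulVec_mul, mul_inv_cancel, sl2_one_mulVec]
  · obtain ⟨w, hw, e⟩ := he l ⟨v, hv⟩
    change (w : G) = l * v * (l : G)⁻¹ at hw
    rw [← hw, hΨ _ w.2, hΨ _ hv, e, sl2_mulVec_mul]
    change _ = (y * ρ l * y⁻¹).1 *ᵥ _
    rw [sl2_mulVec_mul, inv_mul_cancel_right]
  · have : (l : G) ∈ (S : Subgroup L).map L.subtype ↔ y * ρ l * y⁻¹ ∈ (upSL F).range := by
      rw [← hy', conj_mem_cj, mem_map_iff_mem hi]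
      exact mem_map_iff_mem L.subtype_injective
    rw [this]
    exact ⟨fun ⟨c, e⟩ => ⟨c.toAdd, e.symm⟩, fun ⟨c, e⟩ => ⟨Multiplicative.ofAdd c, e.symm⟩⟩

namespace NatN

variable {V L T : Subgroup G} (N : NatN F V L T)

theorem one : N.ψ 1 = 0 := by
  have := N.mul 1 V.one_mem 1 V.one_mem
  rw [one_mul] at this
  exact left_eq_add.1 this

theorem inv {a : G} (ha : a ∈ V) : N.ψ a⁻¹ = -N.ψ a := by
  rw [eq_neg_iff_add_eq_zero, ← N.mul _ (V.inv_mem ha) _ ha, inv_mul_cancel, N.one]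

theorem eq_one {a : G} (ha : a ∈ V) (h : N.ψ a = 0) : a = 1 :=
  N.inj a ha 1 V.one_mem (h.trans N.one.symm)

include N in
theorem conj_mem (l : L) {v : G} (hv : v ∈ V) : l * v * (l : G)⁻¹ ∈ V :=
  conj_mem_of_mem_normalizer (N.norm l.2) hv

include N in
theorem comm {a b : G} (ha : a ∈ V) (hb : b ∈ V) : a * b = b * a :=
  N.inj _ (V.mul_mem ha hb) _ (V.mul_mem hb ha) (by rw [N.mul _ ha _ hb, N.mul _ hb _ ha, add_comm])

theorem comm_iff (l : L) {v : G} (hv : v ∈ V) : l * v = v * l ↔ (N.ρ l).1 *ᵥ N.ψ v = N.ψ v := by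
  rw [← N.equiv l v hv, ← mul_inv_eq_iff_eq_mul]
  exact ⟨fun h => by rw [h], N.inj _ (N.conj_mem l hv) _ hv⟩

theorem exists_up (c : F) : ∃ l : L, (l : G) ∈ T ∧ N.ρ l = up c := by
  obtain ⟨l, hl⟩ := N.bij.2 (up c)
  exact ⟨l, (N.memT l).2 ⟨c, hl⟩, hl⟩

theorem comm_up_iff {l : L} {c : F} (h : N.ρ l = up c) {v : G} (hv : v ∈ V) :
    l * v = v * l ↔ c * N.ψ v 1 = 0 := by
  rw [N.comm_iff l hv, h, up_mulVec]
  constructor
  · intro e
    simpa using congrFun e 0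
  · intro e
    ext i; fin_cases i <;> simp [e]

theorem mem_C {v : G} : v ∈ V ⊓ centralizer (T : Set G) ↔ v ∈ V ∧ N.ψ v 1 = 0 := by
  refine ⟨fun h => ⟨h.1, ?_⟩, fun h => ⟨h.1, fun t ht => ?_⟩⟩
  · obtain ⟨l, h1, h2⟩ := N.exists_up 1
    simpa using (N.comm_up_iff h2 h.1).1 (h.2 l h1)
  · obtain ⟨c, hc⟩ := (N.memT ⟨t, N.TL ht⟩).1 ht
    exact (N.comm_up_iff hc h.1).2 (by rw [h.2, mul_zero])

include N in
theorem comm_mem (l : L) {v : G} (hv : v ∈ V) : v * l * v⁻¹ * (l : G)⁻¹ ∈ V := by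
  have := V.mul_mem hv (N.conj_mem l (V.inv_mem hv))
  simpa only [mul_assoc] using this

theorem ψ_comm {l : L} {c : F} (h : N.ρ l = up c) {v : G} (hv : v ∈ V) :
    N.ψ (v * l * v⁻¹ * (l : G)⁻¹) = ![-(c * N.ψ v 1), 0] := by
  rw [show v * l * v⁻¹ * (l : G)⁻¹ = v * (l * v⁻¹ * (l : G)⁻¹) by group,
    N.mul _ hv _ (N.conj_mem l (V.inv_mem hv)), N.equiv l _ (V.inv_mem hv), N.inv hv, h, up_mulVec]
  ext i; fin_cases i <;> simp

include N in
theorem commutator_le_C : ⁅V, T⁆ ≤ V ⊓ centralizer (T : Set G) := by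
  rw [commutator_le]
  intro v hv t ht
  obtain ⟨c, hc⟩ := (N.memT ⟨t, N.TL ht⟩).1 ht
  exact N.mem_C.2 ⟨N.comm_mem ⟨t, N.TL ht⟩ hv, by
    rw [commutatorElement_def, N.ψ_comm (l := ⟨t, N.TL ht⟩) hc hv]; rfl⟩

theorem eq_comm_of_mem_C {x v : G} (hx : x ∈ V ⊓ centralizer (T : Set G)) (hv : v ∈ V) {l : L} {c : F}
    (h : N.ρ l = up c) (e : c * N.ψ v 1 = -N.ψ x 0) : x = v * l * v⁻¹ * (l : G)⁻¹ :=
  N.inj _ hx.1 _ (N.comm_mem l hv) (by
    rw [N.ψ_comm h hv, e]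
    ext i; fin_cases i <;> simp [(N.mem_C.1 hx).2])

include N in
theorem card_V [Fintype F] : Nat.card V = Fintype.card F ^ 2 := by
  rw [Nat.card_eq_of_bijective (fun v : V => N.ψ v) ⟨fun a b h => Subtype.ext (N.inj _ a.2 _ b.2 h),
    fun x => by obtain ⟨v, hv, e⟩ := N.surj x; exact ⟨⟨v, hv⟩, e⟩⟩]
  simp

include N in
theorem card_C [Fintype F] : Nat.card ↥(V ⊓ centralizer (T : Set G)) = Fintype.card F := by
  rw [Nat.card_eq_of_bijective (fun v : ↥(V ⊓ centralizer (T : Set G)) => N.ψ v 0)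
    ⟨fun a b h => Subtype.ext (N.inj _ a.2.1 _ b.2.1 (by
      ext i; fin_cases i
      · exact h
      · exact (N.mem_C.1 a.2).2.trans (N.mem_C.1 b.2).2.symm)), fun x => by
      obtain ⟨v, hv, e⟩ := N.surj ![x, 0]
      exact ⟨⟨v, N.mem_C.2 ⟨hv, by rw [e]; rfl⟩⟩, by simp [e]⟩⟩, Nat.card_eq_fintype_card]

theorem mem_normalizer_of_lower {l : L} (h : (N.ρ l).1 1 0 = 0) : (l : G) ∈ normalizer (T : Set G) := by
  have key : ∀ l : L, (N.ρ l).1 1 0 = 0 → ∀ t ∈ T, l * t * (l : G)⁻¹ ∈ T := fun l h t ht => by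
    obtain ⟨c, hc⟩ := (N.memT ⟨t, N.TL ht⟩).1 ht
    refine (N.memT (l * ⟨t, N.TL ht⟩ * l⁻¹)).2 ⟨(N.ρ l).1 0 0 ^ 2 * c, ?_⟩
    have hd := sl2_det (N.ρ l)
    rw [h, mul_zero, sub_zero] at hd
    rw [map_mul, map_mul, map_inv, hc]
    apply sl2_ext <;> simp only [sl2_mul_apply, sl2_inv00, sl2_inv01, sl2_inv10, sl2_inv11, up00, up01,
      up10, up11, h]
    · linear_combination hd
    · ring
    · ring
    · linear_combination hd
  rw [mem_normalizer_iff]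
  refine fun t => ⟨key l h t, fun ht => ?_⟩
  have := key l⁻¹ (by rw [map_inv, sl2_inv10, h, neg_zero]) _ ht
  simpa [mul_assoc] using this

end NatN

end Cfsg.Agent.H69
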