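import Cfsg.Agent.H69.CosetGraph
import Cfsg.Agent.H3.PResidual
import Cfsg.Prelude.Def_LocalStructure

/-! The iterated closures `V_δ^{(n)}` on the coset graph. -/

set_option autoImplicit false

namespace Cfsg.Agent.H69

open Subgroup MulAction
open scoped commutatorElement

variable {X : Type*} [Group X] {p : ℕ} {M₁ M₂ : Subgroup X}

theorem le_of_le_sup_comm [Fact p.Prime] {U V Q : Subgroup X} [Finite Q] (hQ : IsPGroup p Q)
    (hV : V ≤ Q) (hU : U ≤ V) (nU : Q ≤ normalizer (U : Set X)) (nV : Q ≤ normalizer (V : Set X))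
    (h : V ≤ U ⊔ ⁅V, Q⁆) : V ≤ U := by
  obtain ⟨n, hn⟩ := (isNilpotent_iff_lowerCentralSeries Q).1 hQ.isNilpotent
  have key : ∀ k, V ≤ U ⊔ (V ⊓ Q.lowerCentralSeries k) := fun k => by
    induction k with
    | zero => exact le_sup_of_le_right (le_inf le_rfl hV)
    | succ k ih =>
      refine h.trans (sup_le le_sup_left (commutator_le.2 fun v hv s hs => ?_))
      obtain ⟨u, hu, a, ha, rfl⟩ := (mem_sup_of_le_normalizer (((hU.trans hV).trans
        (le_inf nV (Q.self_le_normalizer_lowerCentralSeries k))).trans inf_normalizer_le_normalizer_inf)).1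
        (ih hv)
      have e : ⁅u * a, s⁆ = u * ⁅a, s⁆ * u⁻¹ * (u * (s * u⁻¹ * s⁻¹)) := by
        simp only [commutatorElement_def]; group
      rw [e]
      have h1 : u ∈ U ⊔ (V ⊓ Q.lowerCentralSeries (k + 1)) := mem_sup_left hu
      refine mul_mem (mul_mem (mul_mem h1 (mem_sup_right ⟨?_, commutator_mem_commutator ha.2 hs⟩))
        (inv_mem h1)) (mul_mem h1 (mem_sup_left (conj_mem_of_mem_normalizer (nU hs) (inv_mem hu))))
      have := V.mul_mem ha.1 (conj_mem_of_mem_normalizer (nV hs) (inv_mem ha.1))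
      change ⁅a, s⁆ ∈ V
      simpa only [commutatorElement_def, mul_assoc] using this
  simpa [hn] using key n

theorem le_vIter {n : ℕ} {δ μ : CosetVertex M₁ M₂} (h : (cosetGraph M₁ M₂).dist δ μ ≤ n) :
    vertexZ p μ ≤ vertexVIter p M₁ M₂ n δ :=
  le_iSup (fun μ : {μ : CosetVertex M₁ M₂ // (cosetGraph M₁ M₂).dist δ μ ≤ n} =>
    vertexZ p (μ : CosetVertex M₁ M₂)) ⟨μ, h⟩

theorem vIter_le {n : ℕ} {δ : CosetVertex M₁ M₂} {W : Subgroup X}
    (h : ∀ μ, (cosetGraph M₁ M₂).dist δ μ ≤ n → vertexZ p μ ≤ W) : vertexVIter p M₁ M₂ n δ ≤ W :=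
  iSup_le fun μ => h μ μ.2

theorem cj_vIter_le (g : X) (n : ℕ) (δ : CosetVertex M₁ M₂) :
    cj g (vertexVIter p M₁ M₂ n δ) ≤ vertexVIter p M₁ M₂ n (g • δ) := by
  rw [cj_le_iff]
  refine vIter_le fun μ h => ?_
  rw [← cj_le_iff, ← vertexZ_smul]
  exact le_vIter (by rwa [dist_smul])

theorem norm_vIter (n : ℕ) (δ : CosetVertex M₁ M₂) :
    stabilizer X δ ≤ normalizer (vertexVIter p M₁ M₂ n δ : Set X) :=
  le_normalizer_of_cj_le fun g hg => by
    have := cj_vIter_le (p := p) g n δ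
    rwa [mem_stabilizer_iff.1 hg] at this

theorem vIter_le_of_adj (hc : (cosetGraph M₁ M₂).Connected) {δ μ : CosetVertex M₁ M₂}
    (h : (cosetGraph M₁ M₂).Adj δ μ) (n : ℕ) :
    vertexVIter p M₁ M₂ n μ ≤ vertexVIter p M₁ M₂ (n + 1) δ :=
  vIter_le fun ν hν => le_vIter (by
    have h1 := hc.dist_triangle (u := δ) (v := μ) (w := ν)
    rw [SimpleGraph.dist_eq_one_iff_adj.2 h] at h1
    omega)

variable [Fact p.Prime]

theorem vIter_ne_bot (h : IsCharPAmalgamPair p M₁ M₂) (n : ℕ) (δ : CosetVertex M₁ M₂) :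
    vertexVIter p M₁ M₂ n δ ≠ ⊥ := by
  have := finite_stabilizer h δ
  obtain ⟨T, hT⟩ := exists_sylOf p (stabilizer X δ)
  have := finite_of_le hT.le
  intro e
  refine omegaOne_zOf_ne_bot hT.isPGroup (fun e' => ?_)
    (eq_bot_iff.2 (hT.omegaOne_zOf_le.trans (e ▸ le_vIter (by simp))))
  have h1 := hT.toSylow.ne_bot_of_dvd_card (dvd_card_stabilizer h δ)
  rw [hT.coe_toSylow, e'] at h1
  simp at h1

theorem vIter_succ_le (h : IsCharPAmalgamPair p M₁ M₂) {n : ℕ} {δ : CosetVertex M₁ M₂}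
    {W : Subgroup X} (hW : ∀ μ, (cosetGraph M₁ M₂).Adj δ μ → vertexVIter p M₁ M₂ n μ ≤ W) :
    vertexVIter p M₁ M₂ (n + 1) δ ≤ W := by
  refine vIter_le fun ν hν => ?_
  rcases hd : (cosetGraph M₁ M₂).dist δ ν with _ | k
  · obtain rfl : δ = ν := ((connected h.1.1).dist_eq_zero_iff).1 hd
    have := finite_stabilizer h δ
    obtain ⟨μ, hμ⟩ := exists_adj δ
    obtain ⟨T, hT⟩ := exists_sylOf p (stabilizer X δ ⊓ stabilizer X μ)
    obtain ⟨h1, h2⟩ := sylOf_edge h hμ hT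
    refine sylowCenterClosure_le_iff.2 fun T' hT' => ?_
    obtain ⟨g, hg, rfl⟩ := h1.exists_conj hT'
    have h3 := h2.cj g
    rw [← stabilizer_smul] at h3
    exact h3.omegaOne_zOf_le.trans ((le_vIter (by simp)).trans (hW _ (adj_smul_of_mem hg hμ)))
  · obtain ⟨β, h1, h2⟩ := exists_adj_dist (connected h.1.1) hd
    exact (le_vIter (by omega)).trans (hW β h1)

omit [Fact p.Prime] in
theorem spe_norm_le_edge (h : IsSpeAmalgamPair p M₁ M₂) {δ μ : CosetVertex M₁ M₂}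
    (hμ : (cosetGraph M₁ M₂).Adj δ μ) {T : Subgroup X}
    (hT : SylOf p T (stabilizer X δ ⊓ stabilizer X μ)) :
    stabilizer X δ ⊓ normalizer (T : Set X) ≤ stabilizer X μ := by
  have key : ∀ T, SylOf p T (M₁ ⊓ M₂) → M₁ ⊓ normalizer (T : Set X) ≤ M₂ ∧
      M₂ ⊓ normalizer (T : Set X) ≤ M₁ := fun T hT => by
    obtain ⟨h1, h2⟩ := h.2.1 hT.toSylow
    rw [hT.map_toSylow] at h1 h2
    exact ⟨h2.trans inf_le_right, h1 ▸ h2.trans inf_le_left⟩
  obtain ⟨x, ⟨e1, e2⟩ | ⟨e1, e2⟩⟩ := edge_cases hμ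
  · have h1 := hT.cj x⁻¹
    rw [e1, e2, ← cj_inf, cj_inv_cj] at h1
    rw [e1, e2, le_cj_iff, cj_inf, cj_inv_cj, cj_normalizer]
    exact (key _ h1).1
  · have h1 := hT.cj x⁻¹
    rw [e1, e2, ← cj_inf, cj_inv_cj, inf_comm] at h1
    rw [e1, e2, le_cj_iff, cj_inf, cj_inv_cj, cj_normalizer]
    exact (key _ h1).2

theorem spe_stabilizer_le (h : IsSpeAmalgamPair p M₁ M₂) {δ μ : CosetVertex M₁ M₂}
    (hμ : (cosetGraph M₁ M₂).Adj δ μ) {N : Subgroup X}
    (h1 : (pResidual p (pElementClosure p (stabilizer X δ))).map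
      (pElementClosure p (stabilizer X δ)).subtype ≤ N)
    (h2 : stabilizer X δ ⊓ stabilizer X μ ≤ N) : stabilizer X δ ≤ N := by
  have := finite_stabilizer h.1 δ
  have := finite_of_le (pElementClosure_le (p := p) (stabilizer X δ))
  obtain ⟨T, hT⟩ := exists_sylOf p (stabilizer X δ ⊓ stabilizer X μ)
  have hT1 := (sylOf_edge h.1 hμ hT).1
  have hT2 := hT1.mono (le_pElementClosure hT1.le hT1.isPGroup) (pElementClosure_le _)
  intro g hg
  obtain ⟨n, hn, k, hk, rfl⟩ := hT1.exists_pElementClosure_mul hg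
  refine N.mul_mem ?_ (h2 ⟨hk.1, spe_norm_le_edge h hμ hT hk⟩)
  have e := congrArg (Subgroup.map (pElementClosure p (stabilizer X δ)).subtype)
    (H3.sylow_sup_pResidual hT2.toSylow)
  rw [Subgroup.map_sup, hT2.map_toSylow, ← MonoidHom.range_eq_map, range_subtype] at e
  rw [← e] at hn
  exact sup_le (hT.le.trans h2) h1 hn

theorem le_normalizer_of_comm_le {R V W : Subgroup X} (hW : W ≤ V) (h : ⁅V, R⁆ ≤ W) :
    R ≤ normalizer (W : Set X) :=
  le_normalizer_of_cj_le fun g hg x hx => by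
    obtain ⟨y, hy, rfl⟩ := mem_cj'.1 hx
    have := W.mul_mem (W.inv_mem (h (commutator_mem_commutator (hW hy) hg))) hy
    simpa [commutatorElement_def, mul_assoc] using this

end Cfsg.Agent.H69
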